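import Mathlib
import Cfsg.Agent.H223.SFourD

set_option autoImplicit false

/-!
# The functors `J_e` and `D`
-/

namespace Cfsg.Agent.H223.SFourD

open Cfsg Cfsg.Agent.Lib
open Cfsg.Agent.PLocal Cfsg.Agent.PLocal.S4ConGroup
open Cfsg.Agent.PLocal.S4FreeSection (S4Free)
open Cfsg.Agent.PLocal.S4ConInst (Gd gdAx)
open Cfsg.Agent.PLocal.ThompsonJ

universe u

/-- The functor `J_e`. -/
def WJ (Q : Type u) [Group Q] : Subgroup Q := thompsonSubgroup 2 Q

/-- The functor `D`. -/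
def WD (Q : Type u) [Group Q] : Subgroup Q := D (⊤ : Subgroup Q)

theorem two_dvd_card {Q : Type u} [Group Q] [Finite Q] (hQ : IsPGroup 2 Q) [Nontrivial Q] :
    2 ∣ Nat.card Q := by
  obtain ⟨n, hn⟩ := hQ.exists_card_eq
  rcases n with _ | n
  · rw [pow_zero] at hn
    have := Finite.one_lt_card (α := Q)
    omega
  · rw [hn]
    exact dvd_pow_self 2 (Nat.succ_ne_zero n)

theorem isCharPFunctor_WJ : IsCharPFunctor.{u} 2 WJ.{u} := by
  have : Fact (Nat.Prime 2) := ⟨Nat.prime_two⟩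
  refine ⟨?_, ?_⟩
  · intro Q _ _ hQ _
    exact thompsonSubgroup_ne_bot (two_dvd_card hQ)
  · intro Q R _ _ _ _ φ
    exact map_mulEquiv_thompsonSubgroup 2 φ

theorem D_ne_bot {Q : Type u} [Group Q] [Finite Q] (hQ : IsPGroup 2 Q) [Nontrivial Q] :
    D (⊤ : Subgroup Q) ≠ ⊥ := by
  have : Fact (Nat.Prime 2) := ⟨Nat.prime_two⟩
  have hZ : Nontrivial (Subgroup.center Q) := hQ.center_nontrivial
  have hZ2 : IsPGroup 2 (Subgroup.center Q) := hQ.to_subgroup _
  obtain ⟨z, hz⟩ := exists_prime_orderOf_dvd_card' 2 (two_dvd_card hZ2)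
  have hz1 : (z : Q) ≠ 1 := by
    intro h1
    have : z = 1 := Subtype.ext h1
    rw [this, orderOf_one] at hz
    omega
  have hz2 : (z : Q) ^ 2 = 1 := by
    have h1 := pow_orderOf_eq_one z
    rw [hz] at h1
    exact congrArg Subtype.val h1
  intro hbot
  have h1 : (z : Q) ∈ D (⊤ : Subgroup Q) := by
    refine omega_le_D ⊤ (Subgroup.subset_closure ⟨⟨Subgroup.mem_top _, ?_⟩, hz2⟩)
    show (z : Q) ∈ Subgroup.centralizer ((⊤ : Subgroup Q) : Set Q)
    rw [Subgroup.mem_centralizer_iff]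
    intro g _
    exact Subgroup.mem_center_iff.1 z.2 g
  rw [hbot, Subgroup.mem_bot] at h1
  exact hz1 h1

theorem isCharPFunctor_WD : IsCharPFunctor.{u} 2 WD.{u} := by
  refine ⟨?_, ?_⟩
  · intro Q _ _ hQ _
    exact D_ne_bot hQ
  · intro Q R _ _ _ _ φ
    have h1 := D_map φ.toMonoidHom φ.injective (⊤ : Subgroup Q)
    rw [Subgroup.map_top_of_surjective _ φ.surjective] at h1
    exact h1

theorem inducedFunctor_WJ {G : Type u} [Group G] (T : Subgroup G) :
    inducedFunctor WJ T = thompsonSubgroupOf 2 T := rfl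

theorem inducedFunctor_WD {G : Type u} [Group G] (T : Subgroup G) :
    inducedFunctor WD T = D T := by
  show (D (⊤ : Subgroup T)).map T.subtype = D T
  rw [D_map _ T.subtype_injective, ← MonoidHom.range_eq_map, Subgroup.range_subtype]

/-- `Ω₁(Z(T)) ≤ J_e(T)`. -/
theorem omega_le_thompson {G : Type u} [Group G] [Finite G] (T : Subgroup G) :
    omegaOne 2 (T ⊓ Subgroup.centralizer (T : Set G)) ≤ thompsonSubgroupOf 2 T := by
  obtain ⟨A, hA⟩ := exists_maxElementaryAbelian 2 T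
  have hA' : IsElementaryAbelian 2 (A.map T.subtype) := isElementaryAbelian_map hA.1 _
  have hle : A.map T.subtype ≤ thompsonSubgroupOf 2 T := Subgroup.map_mono (le_thompsonSubgroup hA)
  refine le_trans ?_ hle
  unfold omegaOne
  rw [Subgroup.closure_le]
  rintro x ⟨hx, hx2⟩
  have hxc := Subgroup.mem_centralizer_iff.1 hx.2
  have hAT : A.map T.subtype ≤ T := Subgroup.map_subtype_le A
  have hexpA : ∀ a ∈ A.map T.subtype, a * a = 1 := fun a ha => by
    have := isElementaryAbelian_pow hA' ha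
    rwa [pow_two] at this
  have hexpx : ∀ u ∈ Subgroup.zpowers x, u * u = 1 := by
    intro u hu
    obtain ⟨k, rfl⟩ := Subgroup.mem_zpowers_iff.1 hu
    rw [← zpow_add, ← two_mul, zpow_mul]
    have h2 : x ^ (2 : ℤ) = 1 := by
      rw [show (2 : ℤ) = ((2 : ℕ) : ℤ) from rfl, zpow_natCast, hx2]
    rw [h2, one_zpow]
  have hexp : ∀ y ∈ A.map T.subtype ⊔ Subgroup.zpowers x, y * y = 1 := by
    refine exp_sup hexpA hexpx ?_
    intro a ha u hu
    obtain ⟨k, rfl⟩ := Subgroup.mem_zpowers_iff.1 hu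
    have h2 : Commute a x := hxc a (hAT ha)
    exact (h2.zpow_right k).eq
  have hB : IsElementaryAbelian 2 (A.map T.subtype ⊔ Subgroup.zpowers x) := by
    rw [isElementaryAbelian_iff]
    exact ⟨comm_of_exp hexp, fun a ha => by rw [pow_two]; exact hexp a ha⟩
  have hBT : A.map T.subtype ⊔ Subgroup.zpowers x ≤ T :=
    sup_le hAT (Subgroup.zpowers_le.2 hx.1)
  have h3 : A ≤ (A.map T.subtype ⊔ Subgroup.zpowers x).subgroupOf T := by
    intro a ha
    exact (le_sup_left : A.map T.subtype ≤ _) ⟨a, ha, rfl⟩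
  have h4 := eq_of_le_of_mem_max hA (isElementaryAbelian_subgroupOf hB T) h3
  have h5 : (⟨x, hx.1⟩ : T) ∈ A := by
    rw [h4]
    exact (le_sup_right : Subgroup.zpowers x ≤ A.map T.subtype ⊔ _) (Subgroup.mem_zpowers x)
  exact ⟨⟨x, hx.1⟩, h5, rfl⟩

end Cfsg.Agent.H223.SFourD
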